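import Cfsg.Agent.LargeFischer85.Defs

/-!
Large Fischer type: digit arithmetic of the model space (addition, the cube root, monomial maps and
the biadditive polar form).
-/

set_option autoImplicit false
set_option maxRecDepth 100000

namespace CfsgLib.LargeFischer4

open CfsgLib.LargeFischer85

theorem dig_lt (n i : ℕ) : dig n i < 4 := Nat.mod_lt _ (by norm_num)

theorem dig_vadd (a b : Fin 4096) {i : ℕ} (hi : i < 6) :
    dig (vadd a b).val i = dig a.val i ^^^ dig b.val i := by
  have e2 : ∀ m, (4 : ℕ) ^ m = 2 ^ (2 * m) := fun m => by rw [pow_mul]; norm_num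
  have e3 : ∀ m : ℕ, m % 4 = m % 2 ^ 2 := fun m => by norm_num
  simp only [dig, vadd, e2, e3]
  have e4 : ∀ m : ℕ, m % 4096 = m % 2 ^ 12 := fun m => by norm_num
  rw [e4]
  apply Nat.eq_of_testBit_eq
  intro j
  simp only [Nat.testBit_mod_two_pow, Nat.testBit_div_two_pow, Nat.testBit_xor]
  by_cases hj : j < 2
  · simp [hj, show j + 2 * i < 12 by omega]
  · simp [hj]

theorem dig_mkN {f : Fin 6 → ℕ} (hf : ∀ i, f i < 4) (i : Fin 6) : dig (mkN f).val i.val = f i := by
  have h0 := hf 0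
  have h1 := hf 1
  have h2 := hf 2
  have h3 := hf 3
  have h4 := hf 4
  have h5 := hf 5
  fin_cases i <;>
    simp [dig, mkN] <;> omega

theorem ext_dig {a b : Fin 4096} (h : ∀ i : Fin 6, dig a.val i.val = dig b.val i.val) : a = b := by
  have h0 := h 0
  have h1 := h 1
  have h2 := h 2
  have h3 := h 3
  have h4 := h 4
  have h5 := h 5
  have := a.isLt
  have := b.isLt
  apply Fin.ext
  simp only [dig, Fin.val_zero, Fin.val_one, Fin.val_two] at h0 h1 h2
  simp only [dig] at h3 h4 h5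
  norm_num at h0 h1 h2 h3 h4 h5
  omega

theorem scal_lt {k : ZMod 3} {d : ℕ} : scal k d < 4 := by
  unfold scal
  split <;> omega

theorem scal_xor_fin : ∀ k : ZMod 3, ∀ a b : Fin 4,
    scal k (a.val ^^^ b.val) = scal k a.val ^^^ scal k b.val := by decide

theorem scal_scal_fin : ∀ k l : ZMod 3, ∀ a : Fin 4, scal k (scal l a.val) = scal (l + k) a.val := by
  decide

theorem dig_om (n : Fin 4096) (i : Fin 6) : dig (om n).val i.val = scal 1 (dig n.val i.val) :=
  dig_mkN (fun _ => scal_lt) i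

theorem dig_monF (σ : Equiv.Perm (Fin 6)) (ε : Fin 6 → ZMod 3) (n : Fin 4096) (j : Fin 6) :
    dig (monF σ ε n).val j.val = scal (ε (σ.symm j)) (dig n.val (σ.symm j).val) :=
  dig_mkN (fun _ => scal_lt) j

theorem om_vadd (a b : Fin 4096) : om (vadd a b) = vadd (om a) (om b) := ext_dig fun i => by
  rw [dig_om, dig_vadd _ _ i.isLt, dig_vadd _ _ i.isLt, dig_om, dig_om]
  exact scal_xor_fin 1 ⟨_, dig_lt _ _⟩ ⟨_, dig_lt _ _⟩

theorem monF_vadd (σ : Equiv.Perm (Fin 6)) (ε : Fin 6 → ZMod 3) (a b : Fin 4096) :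
    monF σ ε (vadd a b) = vadd (monF σ ε a) (monF σ ε b) := ext_dig fun i => by
  rw [dig_monF, dig_vadd _ _ (σ.symm i).isLt, dig_vadd _ _ i.isLt, dig_monF, dig_monF]
  exact scal_xor_fin _ ⟨_, dig_lt _ _⟩ ⟨_, dig_lt _ _⟩

theorem monF_comp (σ τ : Equiv.Perm (Fin 6)) (ε δ : Fin 6 → ZMod 3) (n : Fin 4096) :
    monF σ ε (monF τ δ n) = monF (σ * τ) (fun i => δ i + ε (τ i)) n := ext_dig fun i => by
  rw [dig_monF, dig_monF, dig_monF,
    show (σ * τ).symm i = τ.symm (σ.symm i) from rfl, Equiv.apply_symm_apply]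
  exact scal_scal_fin _ _ ⟨_, dig_lt _ _⟩

theorem vadd_self (a : Fin 4096) : vadd a a = 0 := by simp [vadd]

theorem vadd_zero' (a : Fin 4096) : vadd a 0 = a := ext_dig fun i => by
  rw [dig_vadd _ _ i.isLt, show dig (0 : Fin 4096).val i.val = 0 by simp [dig], Nat.xor_zero]

theorem vadd_vadd_cancel (a b : Fin 4096) : vadd a (vadd a b) = b := ext_dig fun i => by
  rw [dig_vadd _ _ i.isLt, dig_vadd _ _ i.isLt, ← Nat.xor_assoc, Nat.xor_self, Nat.zero_xor]

/-- the norm of a digit -/
def dz (d : ℕ) : ZMod 2 := if d = 0 then 0 else 1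

/-- the quadratic form -/
def qz (n : Fin 4096) : ZMod 2 := ∑ i : Fin 6, dz (dig n.val i.val)

/-- the polar form -/
def pz (a b : Fin 4096) : ZMod 2 := qz (vadd a b) + qz a + qz b

theorem wt_cast (n : Fin 4096) : (wt n : ZMod 2) = qz n := by
  simp only [wt, qz, dz, List.range_succ, List.range_zero, List.nil_append, List.foldr_append,
    List.foldr_cons, List.foldr_nil, Fin.sum_univ_six, Nat.cast_add, Nat.cast_ite, Nat.cast_zero,
    Nat.cast_one]
  simp only [Fin.val_zero, Fin.val_one, Fin.val_two]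
  norm_num
  ring

theorem cast_eq_zero_iff_two (n : ℕ) : ((n : ZMod 2) = 0) ↔ n % 2 = 0 := by
  rw [ZMod.natCast_eq_zero_iff_even, Nat.even_iff]

theorem sing_iff_qz (n : Fin 4096) : sing n ↔ qz n = 0 := by
  rw [← wt_cast, cast_eq_zero_iff_two]; rfl

theorem orth_iff_pz (a b : Fin 4096) : orth a b ↔ pz a b = 0 := by
  rw [pz, ← wt_cast, ← wt_cast, ← wt_cast, ← Nat.cast_add, ← Nat.cast_add, cast_eq_zero_iff_two]; rfl

theorem dz_polar_fin : ∀ a b c : Fin 4,
    dz ((a.val ^^^ b.val) ^^^ c.val) + dz (a.val ^^^ b.val) + dz c.val =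
      (dz (a.val ^^^ c.val) + dz a.val + dz c.val) + (dz (b.val ^^^ c.val) + dz b.val + dz c.val) := by
  decide

theorem pz_vadd_left (a b c : Fin 4096) : pz (vadd a b) c = pz a c + pz b c := by
  simp only [pz, qz, ← Finset.sum_add_distrib]
  refine Finset.sum_congr rfl fun i _ => ?_
  simp only [dig_vadd _ _ i.isLt]
  exact dz_polar_fin ⟨_, dig_lt _ _⟩ ⟨_, dig_lt _ _⟩ ⟨_, dig_lt _ _⟩

theorem vadd_comm' (a b : Fin 4096) : vadd a b = vadd b a := by
  simp [vadd, Nat.xor_comm]

theorem pz_comm (a b : Fin 4096) : pz a b = pz b a := by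
  rw [pz, pz, vadd_comm']; ring

theorem orth_comm (a b : Fin 4096) : orth a b ↔ orth b a := by
  rw [orth_iff_pz, orth_iff_pz, pz_comm]

/-- Adding a vector orthogonal to `y` does not change hermitian orthogonality with `y`. -/
theorem herm_vadd_left {c y : Fin 4096} (hc : herm c y) (x : Fin 4096) :
    herm (vadd c x) y ↔ herm x y := by
  obtain ⟨h1, h2⟩ := hc
  rw [orth_iff_pz] at h1 h2
  simp only [herm, orth_iff_pz, om_vadd, pz_vadd_left, h1, h2, zero_add]

theorem herm_vadd_right {c y : Fin 4096} (hc : herm y c) (x : Fin 4096) :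
    herm y (vadd c x) ↔ herm y x := by
  obtain ⟨h1, h2⟩ := hc
  rw [orth_iff_pz, pz_comm] at h1 h2
  simp only [herm, orth_iff_pz, pz_comm y, pz_comm (om y), pz_vadd_left, h1, h2, zero_add]

/-- An additive map preserving singularity preserves orthogonality. -/
theorem orth_iff_of_additive {g : Equiv.Perm (Fin 4096)} (hadd : ∀ a b, g (vadd a b) = vadd (g a) (g b))
    (hs : ∀ n, sing (g n) ↔ sing n) (a b : Fin 4096) : orth (g a) (g b) ↔ orth a b := by
  have h : ∀ n, qz (g n) = qz n := fun n => by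
    have h2 : ∀ x : ZMod 2, x = 0 ∨ x = 1 := by decide
    have := hs n
    rw [sing_iff_qz, sing_iff_qz] at this
    rcases h2 (qz (g n)) with e | e <;> rcases h2 (qz n) with e' | e' <;> simp_all
  rw [orth_iff_pz, orth_iff_pz, pz, pz, ← hadd, h, h, h]

theorem lowbit_check : ∀ n : Fin 4096, n.val ≠ 0 →
    ∃ i : Fin 12, n.val ^^^ 2 ^ i.val < n.val := by decide +kernel

/-- the `i`-th unit vector over the field with two elements -/
def bit (i : Fin 12) : Fin 4096 := ⟨2 ^ i.val, by
  calc 2 ^ i.val < 2 ^ 12 := Nat.pow_lt_pow_right (by norm_num) i.isLt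
    _ = 4096 := by norm_num⟩

/-- Additive maps agreeing on the twelve unit vectors agree. -/
theorem ext_additive {f h : Fin 4096 → Fin 4096} (hf : ∀ a b, f (vadd a b) = vadd (f a) (f b))
    (hh : ∀ a b, h (vadd a b) = vadd (h a) (h b)) (he : ∀ i, f (bit i) = h (bit i)) (n : Fin 4096) :
    f n = h n := by
  induction hn : n.val using Nat.strong_induction_on generalizing n with
  | _ m ih =>
    by_cases h0 : n.val = 0
    · have e : n = vadd (bit 0) (bit 0) := by rw [vadd_self]; exact Fin.ext h0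
      rw [e, hf, hh, he]
    · obtain ⟨i, hi⟩ := lowbit_check n h0
      have hval : (vadd n (bit i)).val = n.val ^^^ 2 ^ i.val := by
        simp only [vadd, bit]
        exact Nat.mod_eq_of_lt (by omega)
      have e : n = vadd (bit i) (vadd n (bit i)) := by
        rw [vadd_comm' n, vadd_vadd_cancel]
      rw [e, hf, hh, he, ih (vadd n (bit i)).val (by omega) _ rfl]

end CfsgLib.LargeFischer4
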