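import Cfsg.Agent.LargeFischer4.Digits

/-!
Large Fischer type: the transvections at singular vectors without zero coordinate send the frame to
pairwise distinct frames.
-/

set_option autoImplicit false
set_option maxRecDepth 100000

namespace CfsgLib.LargeFischer4

open CfsgLib.LargeFischer85

/-- the transvection at a singular vector -/
def tau (v x : Fin 4096) : Fin 4096 :=
  if herm x v then x else if orth x v then vadd x v else if orth x (om v) then vadd x (om v)
  else vadd x (om (om v))

/-- the `i`-th frame vector times a power of the root -/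
def tgt (i : Fin 6) (a : ZMod 3) : Fin 4096 := mkN fun l => if l = i then scal a 1 else 0

/-- representatives for the class 0 -/
def sixL0 : List ℕ :=
  [1365, 1389, 1401, 1437, 1449, 1461, 1497, 1509, 1533, 1629, 1641, 1653, 1689, 1701, 1725, 1749, 1773, 1785, 1881, 1893, 1917, 1941, 1965, 1977, 2013, 2025, 2037, 2397, 2409, 2421, 2457, 2469, 2493, 2517, 2541, 2553, 2649, 2661, 2685, 2709, 2733, 2745, 2781, 2793, 2805, 2901, 2925, 2937, 2973, 2985, 2997, 3033, 3045, 3069, 3417, 3429, 3453, 3477, 3501, 3513, 3549, 3561, 3573, 3669, 3693, 3705, 3741, 3753, 3765, 3801, 3813, 3837, 3933, 3945, 3957, 3993, 4005, 4029, 4053, 4077, 4089]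

/-- representatives for the class 1 -/
def sixL1 : List ℕ :=
  [1369, 1381, 1405, 1429, 1453, 1465, 1501, 1513, 1525, 1621, 1645, 1657, 1693, 1705, 1717, 1753, 1765, 1789, 1885, 1897, 1909, 1945, 1957, 1981, 2005, 2029, 2041, 2389, 2413, 2425, 2461, 2473, 2485, 2521, 2533, 2557, 2653, 2665, 2677, 2713, 2725, 2749, 2773, 2797, 2809, 2905, 2917, 2941, 2965, 2989, 3001, 3037, 3049, 3061, 3421, 3433, 3445, 3481, 3493, 3517, 3541, 3565, 3577, 3673, 3685, 3709, 3733, 3757, 3769, 3805, 3817, 3829, 3925, 3949, 3961, 3997, 4009, 4021, 4057, 4069, 4093]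

/-- representatives for the class 2 -/
def sixL2 : List ℕ :=
  [1373, 1385, 1397, 1433, 1445, 1469, 1493, 1517, 1529, 1625, 1637, 1661, 1685, 1709, 1721, 1757, 1769, 1781, 1877, 1901, 1913, 1949, 1961, 1973, 2009, 2021, 2045, 2393, 2405, 2429, 2453, 2477, 2489, 2525, 2537, 2549, 2645, 2669, 2681, 2717, 2729, 2741, 2777, 2789, 2813, 2909, 2921, 2933, 2969, 2981, 3005, 3029, 3053, 3065, 3413, 3437, 3449, 3485, 3497, 3509, 3545, 3557, 3581, 3677, 3689, 3701, 3737, 3749, 3773, 3797, 3821, 3833, 3929, 3941, 3965, 3989, 4013, 4025, 4061, 4073, 4085]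

/-- the representatives of the class `k` -/
def six (k : ZMod 3) (j : Fin 81) : Fin 4096 :=
  ⟨((if k.val = 0 then sixL0 else if k.val = 1 then sixL1 else sixL2).getD j.val 0) % 4096,
    Nat.mod_lt _ (by norm_num)⟩

theorem six_one : ∀ k : ZMod 3, ∀ j : Fin 81, inOne k (six k j) := by decide +kernel

theorem frames_distinct0 : ∀ a b : Fin 81, a < b →
    ∃ i : Fin 6, wt (tau (six 0 b) (tau (six 0 a) (tgt i 0))) ≠ 1 := by decide +kernel

theorem frames_distinct1 : ∀ a b : Fin 81, a < b →
    ∃ i : Fin 6, wt (tau (six 1 b) (tau (six 1 a) (tgt i 0))) ≠ 1 := by decide +kernel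

theorem frames_distinct2 : ∀ a b : Fin 81, a < b →
    ∃ i : Fin 6, wt (tau (six 2 b) (tau (six 2 a) (tgt i 0))) ≠ 1 := by decide +kernel

end CfsgLib.LargeFischer4
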