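import Cfsg.Agent.LargeFischer4.FrameData

/-!
Large Fischer type: the transvection exchanging two frame vectors is not in a frame group of linear
maps, by counting the images of the frame under its conjugates.
-/

set_option autoImplicit false
set_option maxRecDepth 100000

namespace CfsgLib.LargeFischer4

open CfsgLib.LargeFischer85

theorem tau_five : ∀ x : Fin 4096, monF (Equiv.swap 0 1) 0 x = tau 5 x ∧
    monF (Equiv.swap 0 1) 0 (monF (Equiv.swap 0 1) 0 x) = x ∧ wt (om x) = wt x := by decide +kernel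

theorem swap_inOne : ∀ k : ZMod 3, inOne k 5 := by decide +kernel

theorem tau_equivariant {m : Equiv.Perm (Fin 4096)} (hadd : ∀ a b, m (vadd a b) = vadd (m a) (m b))
    (hs : ∀ n, sing (m n) ↔ sing n) (hom : ∀ n, m (om n) = om (m n)) (v x : Fin 4096) :
    tau (m v) (m x) = m (tau v x) := by
  have ho := orth_iff_of_additive hadd hs
  have hh : herm (m x) (m v) ↔ herm x v := by
    unfold herm
    rw [← hom, ho, ho]
  have h2 : orth (m x) (om (m v)) ↔ orth x (om v) := by rw [← hom, ho]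
  unfold tau
  simp only [hh, ho, h2]
  split_ifs <;> simp [hadd, hom]

/-- the exponents of a monomial map with sum zero -/
def epsOf (c : Fin 5 → ZMod 3) : Fin 6 → ZMod 3 := Fin.snoc c (-∑ i, c i)

theorem epsOf_sum (c : Fin 5 → ZMod 3) : ∑ i, epsOf c i = 0 := by
  have h5 : (Fin.snoc (α := fun _ => ZMod 3) c (-∑ i, c i) : Fin 6 → ZMod 3) (Fin.last 5) = -∑ i, c i :=
    Fin.snoc_last (α := fun _ => ZMod 3) _ _
  rw [Fin.sum_univ_castSucc]
  simp only [epsOf, Fin.snoc_castSucc, h5, add_neg_cancel]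

theorem tgt_inj : ∀ i j : Fin 6, ∀ a b : ZMod 3, tgt i a = tgt j b → i = j ∧ a = b := by decide +kernel

theorem tgt_wt : ∀ i : Fin 6, ∀ a : ZMod 3, wt (tgt i a) = 1 := by decide +kernel

theorem tgt_om : ∀ i : Fin 6, tgt i 1 = om (tgt i 0) ∧ tgt i 2 = om (om (tgt i 0)) := by decide +kernel

theorem monF_tgt (σ : Equiv.Perm (Fin 6)) (ε : Fin 6 → ZMod 3) (i : Fin 6) :
    monF σ ε (tgt i 0) = tgt (σ i) (ε i) := ext_dig fun j => by
  have h : ∀ (l : Fin 6) (a : ZMod 3) (m : Fin 6),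
      dig (tgt l a).val m.val = if m = l then scal a 1 else 0 := fun l a m =>
    dig_mkN (fun n => by split; exacts [scal_lt, by norm_num]) m
  rw [dig_monF, h, h]
  by_cases hj : j = σ i
  · subst hj
    simp [Equiv.symm_apply_apply]
    decide +revert
  · rw [if_neg hj, if_neg fun e => hj (by rw [← e, Equiv.apply_symm_apply])]
    simp [scal]

variable {M : Subgroup (Equiv.Perm (Fin 4096))} {k : ZMod 3}

theorem exists_monomial (hmon : ∀ σ : Equiv.Perm (Fin 6), Equiv.Perm.sign σ = 1 → ∀ ε : Fin 6 → ZMod 3,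
      ∑ i, ε i = 0 → ∃ m ∈ M, ∀ n, m n = monF σ ε n)
    (hswap : ∃ m ∈ M, ∀ n, m n = monF (Equiv.swap 0 1) 0 n)
    (p : Equiv.Perm (Fin 6) × (Fin 5 → ZMod 3)) :
    ∃ m : M, ∀ i, m.1 (tgt i 0) = tgt (p.1 i) (epsOf p.2 i) := by
  rcases Int.units_eq_one_or (Equiv.Perm.sign p.1) with hsgn | hsgn
  · obtain ⟨m, hm, he⟩ := hmon p.1 hsgn _ (epsOf_sum p.2)
    exact ⟨⟨m, hm⟩, fun i => (he _).trans (monF_tgt _ _ _)⟩
  · obtain ⟨t, ht, het⟩ := hswap
    set s : Equiv.Perm (Fin 6) := Equiv.swap 0 1 with hs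
    obtain ⟨m, hm, he⟩ := hmon (p.1 * s)
      (by rw [map_mul, hsgn, hs, Equiv.Perm.sign_swap (by decide)]; rfl) (fun i => epsOf p.2 (s i))
      (by rw [Equiv.sum_comp s (epsOf p.2)]; exact epsOf_sum p.2)
    refine ⟨⟨m * t, M.mul_mem hm ht⟩, fun i => ?_⟩
    show m (t (tgt i 0)) = _
    rw [het, he, monF_comp, monF_tgt]
    simp [hs, Equiv.swap_apply_self, Equiv.Perm.mul_apply]

/-- A frame group of linear maps does not contain the transvection exchanging two frame vectors. -/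
theorem swap_not_mem (hM : IsFrameGroup M)
    (htr : ∀ a b, inOne k a → inOne k b → ∃ m ∈ M, m a = b)
    (hadd : ∀ m ∈ M, ∀ a b, m (vadd a b) = vadd (m a) (m b))
    (hom : ∀ m ∈ M, ∀ n, m (om n) = om (m n)) :
    ¬ ∃ m ∈ M, ∀ n, m n = monF (Equiv.swap 0 1) 0 n := by
  intro hswap
  classical
  obtain ⟨t, ht, het⟩ := id hswap
  have hT : ∀ a : Fin 81, ∃ m : M, (∀ x, m.1 x = tau (six k a) x) ∧ ∀ x, m.1 (m.1 x) = x := by
    intro a
    obtain ⟨g, hg, hga⟩ := htr 5 (six k a) (swap_inOne k) (six_one k a)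
    refine ⟨⟨g * t * g⁻¹, M.mul_mem (M.mul_mem hg ht) (M.inv_mem hg)⟩, fun x => ?_, fun x => ?_⟩
    · show g (t (g⁻¹ x)) = _
      rw [het, (tau_five _).1, ← tau_equivariant (hadd g hg) (hM.sing_iff g hg) (hom g hg), hga,
        ← Equiv.Perm.mul_apply, mul_inv_cancel, Equiv.Perm.one_apply]
    · show g (t (g⁻¹ (g (t (g⁻¹ x))))) = x
      simp only [← Equiv.Perm.mul_apply, inv_mul_cancel, Equiv.Perm.one_apply, mul_assoc]
      simp only [Equiv.Perm.mul_apply]
      rw [← Equiv.Perm.mul_apply g⁻¹ g, inv_mul_cancel, Equiv.Perm.one_apply, het, het, (tau_five _).2.1,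
        ← Equiv.Perm.mul_apply, mul_inv_cancel, Equiv.Perm.one_apply]
  choose T hTx hTT using hT
  choose S hS using exists_monomial hM.mon hswap
  have hkey : ∀ a b : Fin 81, ∀ p p', T a * S p = T b * S p' → a < b → False := by
    intro a b p p' h hab
    obtain ⟨i, hi⟩ : ∃ i : Fin 6, wt (tau (six k b) (tau (six k a) (tgt i 0))) ≠ 1 := by
      have hk : k = 0 ∨ k = 1 ∨ k = 2 := (show ∀ c : ZMod 3, c = 0 ∨ c = 1 ∨ c = 2 by decide) k
      rcases hk with rfl | rfl | rfl
      exacts [frames_distinct0 a b hab, frames_distinct1 a b hab, frames_distinct2 a b hab]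
    apply hi
    rw [← hTx, ← hTx]
    obtain ⟨j, rfl⟩ := p.1.surjective i
    have h' : (T a).1 ((S p).1 (tgt j 0)) = (T b).1 ((S p').1 (tgt j 0)) :=
      congrArg (fun z : M => z.1 (tgt j 0)) h
    rw [hS, hS] at h'
    have hcomm : ∀ x, (T b).1 ((T a).1 (om x)) = om ((T b).1 ((T a).1 x)) := fun x => by
      rw [hom _ (T a).2, hom _ (T b).2]
    have e : wt ((T b).1 ((T a).1 (tgt (p.1 j) (epsOf p.2 j)))) = 1 := by
      rw [h', hTT]; exact tgt_wt _ _
    have hz : ∀ c : ZMod 3, c = 0 ∨ c = 1 ∨ c = 2 := by decide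
    rcases hz (epsOf p.2 j) with hc | hc | hc <;> rw [hc] at e
    · exact e
    · rw [(tgt_om _).1, hcomm, (tau_five _).2.2] at e; exact e
    · rw [(tgt_om _).2, hcomm, hcomm, (tau_five _).2.2, (tau_five _).2.2] at e; exact e
  have hinj : Function.Injective fun ap : Fin 81 × (Equiv.Perm (Fin 6) × (Fin 5 → ZMod 3)) =>
      T ap.1 * S ap.2 := by
    rintro ⟨a, p⟩ ⟨b, p'⟩ h
    rcases lt_trichotomy a b with hl | hl | hl
    · exact (hkey a b p p' h hl).elim
    · subst hl
      have h' : S p = S p' := mul_left_cancel h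
      have hp : ∀ i, p.1 i = p'.1 i ∧ epsOf p.2 i = epsOf p'.2 i := fun i =>
        tgt_inj _ _ _ _ (by rw [← hS p i, ← hS p' i, h'])
      refine Prod.ext rfl (Prod.ext (Equiv.ext fun i => (hp i).1) (funext fun i => ?_))
      simpa [epsOf] using (hp i.castSucc).2
    · exact (hkey b a p' p h.symm hl).elim
  have hc := Nat.card_le_card_of_injective _ hinj
  rw [hM.card, Nat.card_eq_fintype_card] at hc
  simp [Fintype.card_perm, Nat.factorial] at hc

end CfsgLib.LargeFischer4
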