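import Cfsg.Agent.LargeFischer4.Digits
import Cfsg.Prelude.Def_Classical

/-!
Large Fischer type: the twenty-seven totally isotropic planes of the four-dimensional unitary space
(as sets of numbers below 256, coded by bits) and the matching singular points of the six-dimensional
quadratic space of minus type.
-/

set_option autoImplicit false
set_option maxRecDepth 100000

namespace CfsgLib.LargeFischer4

open CfsgLib.LargeFischer85

/-- the index set of the six-dimensional space -/
abbrev Ix : Type := (Fin 2 ⊕ Fin 2) ⊕ Fin 2

/-- a vector of the four-dimensional space in the model -/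
def up (w : Fin 256) : Fin 4096 := ⟨16 * w.val, by omega⟩

/-- the last four coordinates -/
def dn (x : Fin 4096) : Fin 256 := ⟨x.val / 16, by omega⟩

/-- the planes -/
def maskL : List ℕ :=
  [0x8421000000000000000084210000000000000000842100000000000000008421,
    0x84210000842100000000000000008421000000000000000000008421,
    0x842100000000000000008421000084210000000000000000000000008421,
    0x2841000000000000000028410000000000000000284100000000000000002841,
    0x28410000284100000000000000002841000000000000000000002841,
    0x284100000000000000002841000028410000000000000000000000002841,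
    0x4281000000000000000042810000000000000000428100000000000000004281,
    0x42810000428100000000000000004281000000000000000000004281,
    0x428100000000000000004281000042810000000000000000000000004281,
    0x8000400020001000080004000200010000800040002000100008000400020001,
    0x80004000200010800040002000100008000400020001000008000400020001,
    0x800040002000100008000400020001080004000200010000008000400020001,
    0x2000800040001000020008000400010000200080004000100002000800040001,
    0x20008000400010200080004000100002000800040001000002000800040001,
    0x200080004000100002000800040001020008000400010000002000800040001,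
    0x4000200080001000040002000800010000400020008000100004000200080001,
    0x40002000800010400020008000100004000200080001000004000200080001,
    0x400020008000100004000200080001040002000800010000004000200080001,
    0x8000080000800008400004000040000420000200002000021000010000100001,
    0x2000020000200002800008000080000840000400004000041000010000100001,
    0x4000040000400004200002000020000280000800008000081000010000100001,
    0x80800008000008004040000400000400202000020000020010100001000001,
    0x20200002000002008080000800000800404000040000040010100001000001,
    0x40400004000004002020000200000200808000080000080010100001000001,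
    0x800008080000008040000404000000402000020200000020100001010000001,
    0x200002020000002080000808000000804000040400000040100001010000001,
    0x400004040000004020000202000000208000080800000080100001010000001]

/-- spanning pairs -/
def pairL : List (ℕ × ℕ) :=
  [(5, 80), (5, 96), (5, 112), (6, 80), (6, 96), (6, 112), (7, 80), (7, 96), (7, 112), (17, 68), (17, 72), (17, 76), (18, 68), (18, 72), (18, 76), (19, 68), (19, 72), (19, 76), (20, 65), (20, 66), (20, 67), (24, 65), (24, 66), (24, 67), (28, 65), (28, 66), (28, 67)]

/-- codes of the points -/
def ptL : List ℕ := [1, 2, 3, 8, 4, 12, 9, 6, 15, 26, 39, 61, 45, 58, 23, 55, 29, 42, 27, 37, 62, 46, 59, 21, 53, 30, 43]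

/-- membership in a plane -/
def inL (i : Fin 27) (w : Fin 256) : Prop := Nat.testBit (maskL.getD i.val 0) w.val = true

instance decInL (i : Fin 27) (w : Fin 256) : Decidable (inL i w) :=
  inferInstanceAs (Decidable (_ = true))

/-- first spanning vector -/
def fstL (i : Fin 27) : Fin 256 := ⟨(pairL.getD i.val (0, 0)).1 % 256, Nat.mod_lt _ (by norm_num)⟩

/-- second spanning vector -/
def sndL (i : Fin 27) : Fin 256 := ⟨(pairL.getD i.val (0, 0)).2 % 256, Nat.mod_lt _ (by norm_num)⟩

/-- a vector from its code -/
def vec (c : ℕ) : Ix → ZMod 2 := fun x =>
  ((c / 2 ^ (Sum.elim (Sum.elim (fun i : Fin 2 => i.val) (fun i : Fin 2 => 2 + i.val))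
    (fun i : Fin 2 => 4 + i.val) x)) % 2 : ℕ)

/-- the point of a plane -/
def pt (i : Fin 27) : Ix → ZMod 2 := vec (ptL.getD i.val 0)

/-- six planes whose points form a basis -/
def baseL : Fin 6 → Fin 27 := ![7, 24, 14, 15, 17, 26]

/-- rows of the inverse of the basis -/
def invRow : Fin 6 → ℕ := ![20, 14, 56, 38, 25, 17]

/-- the inverse of the basis -/
def baseInv : Matrix (Fin 6) Ix (ZMod 2) := Matrix.of fun k => vec (invRow k)

theorem up_herm_check : ∀ i : Fin 27, ∀ a : Fin 256, inL i a →
    ∀ b : Fin 256, inL i b → herm (up a) (up b) := by decide +kernel

theorem line_eq_check : ∀ i : Fin 27, ∀ a : Fin 256,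
    inL i a ↔ herm (up a) (up (fstL i)) ∧ herm (up a) (up (sndL i)) := by decide +kernel

theorem line_card_check : ∀ i : Fin 27,
    (Finset.univ.filter fun a : Fin 256 => inL i a).card = 16 := by decide +kernel

theorem pair_in_line_check : ∀ a : Fin 256, herm (up a) (up a) → ∀ b : Fin 256, herm (up b) (up b) →
    herm (up a) (up b) → ∃ i : Fin 27, inL i a ∧ inL i b := by decide +kernel

theorem mask_inj_check : ∀ i j : Fin 27, maskL.getD i.val 0 = maskL.getD j.val 0 → i = j := by
  decide +kernel

theorem mask_lt_check : ∀ i : Fin 27, maskL.getD i.val 0 < 2 ^ 256 := by decide +kernel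

theorem triple_check : ∀ i j l : Fin 27, i ≠ j → j ≠ l → i ≠ l →
    1 < (maskL.getD i.val 0 &&& maskL.getD j.val 0 &&& maskL.getD l.val 0) →
    ∀ x : Ix, pt i x + pt j x + pt l x = 0 := by decide +kernel

theorem pt_inj_check : ∀ i j : Fin 27, (∀ x : Ix, pt i x = pt j x) → i = j := by decide +kernel

theorem sing_pt_check : ∀ c : Fin 64,
    Cfsg.quadFormMinus 2 (ZMod 2) 1 1 (vec c.val) = 0 ↔
      c.val = 0 ∨ ∃ i : Fin 27, ptL.getD i.val 0 = c.val := by decide +kernel

theorem vec_surj_check : ∀ u : Ix → ZMod 2, ∃ c : Fin 64, ∀ x, vec c.val x = u x := by decide +kernel

theorem base_inv_check : (∀ k l : Fin 6, baseInv.mulVec (pt (baseL k)) l = if l = k then 1 else 0) ∧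
    ∀ x y : Ix, ∑ k : Fin 6, pt (baseL k) x * baseInv k y = if x = y then 1 else 0 := by
  decide +kernel

/-- derivation of every plane from the base: a plane, two known planes, and a common vector -/
theorem closure {P : Fin 27 → Prop} (hB : ∀ k, P (baseL k))
    (hstep : ∀ (c a b : Fin 27) (w : Fin 256), a ≠ b → b ≠ c → a ≠ c → w ≠ 0 → inL a w → inL b w → inL c w →
      P a → P b → P c) : ∀ i, P i := by
  have h7 : P 7 := hB 0
  have h24 : P 24 := hB 1
  have h14 : P 14 := hB 2
  have h15 : P 15 := hB 3
  have h17 : P 17 := hB 4
  have h26 : P 26 := hB 5
  have h0 : P 0 := hstep 0 17 26 95 (by decide) (by decide) (by decide) (by decide)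
    (by decide +kernel) (by decide +kernel) (by decide +kernel) h17 h26
  have h1 : P 1 := hstep 1 15 24 101 (by decide) (by decide) (by decide) (by decide)
    (by decide +kernel) (by decide +kernel) (by decide +kernel) h15 h24
  have h12 : P 12 := hstep 12 7 26 103 (by decide) (by decide) (by decide) (by decide)
    (by decide +kernel) (by decide +kernel) (by decide +kernel) h7 h26
  have h9 : P 9 := hstep 9 12 15 68 (by decide) (by decide) (by decide) (by decide)
    (by decide +kernel) (by decide +kernel) (by decide +kernel) h12 h15
  have h11 : P 11 := hstep 11 14 17 76 (by decide) (by decide) (by decide) (by decide)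
    (by decide +kernel) (by decide +kernel) (by decide +kernel) h14 h17
  have h13 : P 13 := hstep 13 12 14 18 (by decide) (by decide) (by decide) (by decide)
    (by decide +kernel) (by decide +kernel) (by decide +kernel) h12 h14
  have h16 : P 16 := hstep 16 15 17 19 (by decide) (by decide) (by decide) (by decide)
    (by decide +kernel) (by decide +kernel) (by decide +kernel) h15 h17
  have h25 : P 25 := hstep 25 24 26 28 (by decide) (by decide) (by decide) (by decide)
    (by decide +kernel) (by decide +kernel) (by decide +kernel) h24 h26
  have h2 : P 2 := hstep 2 0 1 5 (by decide) (by decide) (by decide) (by decide)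
    (by decide +kernel) (by decide +kernel) (by decide +kernel) h0 h1
  have h18 : P 18 := hstep 18 0 9 85 (by decide) (by decide) (by decide) (by decide)
    (by decide +kernel) (by decide +kernel) (by decide +kernel) h0 h9
  have h22 : P 22 := hstep 22 0 13 90 (by decide) (by decide) (by decide) (by decide)
    (by decide +kernel) (by decide +kernel) (by decide +kernel) h0 h13
  have h4 : P 4 := hstep 4 1 7 96 (by decide) (by decide) (by decide) (by decide)
    (by decide +kernel) (by decide +kernel) (by decide +kernel) h1 h7
  have h23 : P 23 := hstep 23 1 14 111 (by decide) (by decide) (by decide) (by decide)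
    (by decide +kernel) (by decide +kernel) (by decide +kernel) h1 h14
  have h20 : P 20 := hstep 20 2 11 127 (by decide) (by decide) (by decide) (by decide)
    (by decide +kernel) (by decide +kernel) (by decide +kernel) h2 h11
  have h21 : P 21 := hstep 21 2 12 117 (by decide) (by decide) (by decide) (by decide)
    (by decide +kernel) (by decide +kernel) (by decide +kernel) h2 h12
  have h3 : P 3 := hstep 3 11 24 93 (by decide) (by decide) (by decide) (by decide)
    (by decide +kernel) (by decide +kernel) (by decide +kernel) h11 h24
  have h19 : P 19 := hstep 19 3 12 86 (by decide) (by decide) (by decide) (by decide)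
    (by decide +kernel) (by decide +kernel) (by decide +kernel) h3 h12
  have h5 : P 5 := hstep 5 14 18 125 (by decide) (by decide) (by decide) (by decide)
    (by decide +kernel) (by decide +kernel) (by decide +kernel) h14 h18
  have h6 : P 6 := hstep 6 14 25 94 (by decide) (by decide) (by decide) (by decide)
    (by decide +kernel) (by decide +kernel) (by decide +kernel) h14 h25
  have h8 : P 8 := hstep 8 9 23 119 (by decide) (by decide) (by decide) (by decide)
    (by decide +kernel) (by decide +kernel) (by decide +kernel) h9 h23
  have h10 : P 10 := hstep 10 9 11 17 (by decide) (by decide) (by decide) (by decide)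
    (by decide +kernel) (by decide +kernel) (by decide +kernel) h9 h11
  intro i
  fin_cases i <;> assumption

end CfsgLib.LargeFischer4
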