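import Cfsg.Agent.LargeFischer4.LineData

/-!
Large Fischer type: a group permuting the four-dimensional unitary space and preserving the form
acts by isometries on the six-dimensional quadratic space of minus type through the planes.
-/

set_option autoImplicit false

namespace CfsgLib.LargeFischer4

open CfsgLib.LargeFischer85
open scoped Matrix

/-- A permutation of the four-dimensional space preserving orthogonality. -/
structure IsLineMap (φ : Equiv.Perm (Fin 256)) : Prop where
  zero : φ 0 = 0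
  herm_iff : ∀ a b, herm (up (φ a)) (up (φ b)) ↔ herm (up a) (up b)

theorem line_ext {i j : Fin 27} (h : ∀ w, inL i w ↔ inL j w) : i = j := by
  apply mask_inj_check
  apply Nat.eq_of_testBit_eq
  intro n
  by_cases hn : n < 256
  · exact Bool.eq_iff_iff.2 (h ⟨n, hn⟩)
  · have hp : (2 : ℕ) ^ 256 ≤ 2 ^ n := Nat.pow_le_pow_right (by norm_num) (by omega)
    rw [Nat.testBit_eq_false_of_lt ((mask_lt_check i).trans_le hp),
      Nat.testBit_eq_false_of_lt ((mask_lt_check j).trans_le hp)]

theorem exists_image {φ : Equiv.Perm (Fin 256)} (hφ : IsLineMap φ) (i : Fin 27) :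
    ∃ j, ∀ w, inL i w ↔ inL j (φ w) := by
  classical
  have ha : inL i (fstL i) ∧ inL i (sndL i) := by revert i; decide +kernel
  obtain ⟨j, hja, hjb⟩ := pair_in_line_check (φ (fstL i))
    ((hφ.herm_iff _ _).2 (up_herm_check i _ ha.1 _ ha.1)) (φ (sndL i))
    ((hφ.herm_iff _ _).2 (up_herm_check i _ ha.2 _ ha.2))
    ((hφ.herm_iff _ _).2 (up_herm_check i _ ha.1 _ ha.2))
  refine ⟨j, ?_⟩
  have hsub : (Finset.univ.filter fun a : Fin 256 => inL j a) ⊆
      (Finset.univ.filter fun a : Fin 256 => inL i a).image φ := by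
    intro w hw
    rw [Finset.mem_filter] at hw
    refine Finset.mem_image.2 ⟨φ.symm w, Finset.mem_filter.2 ⟨Finset.mem_univ _, ?_⟩, φ.apply_symm_apply w⟩
    have e := hφ.herm_iff (φ.symm w)
    rw [φ.apply_symm_apply] at e
    rw [line_eq_check]
    exact ⟨(e _).1 (up_herm_check j _ hw.2 _ hja), (e _).1 (up_herm_check j _ hw.2 _ hjb)⟩
  have heq := Finset.eq_of_subset_of_card_le hsub (by
    rw [Finset.card_image_of_injective _ φ.injective, line_card_check, line_card_check])
  intro w
  have := Finset.ext_iff.1 heq (φ w)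
  simp only [Finset.mem_filter, Finset.mem_univ, true_and, Finset.mem_image,
    φ.injective.eq_iff, exists_eq_right] at this
  exact this.symm

variable {G : Type*} [Group G] (ψ : G →* Equiv.Perm (Fin 256)) (hψ : ∀ g, IsLineMap (ψ g))

/-- the image of a plane -/
noncomputable def img (g : G) (i : Fin 27) : Fin 27 := (exists_image (hψ g) i).choose

theorem img_spec (g : G) (i : Fin 27) (w : Fin 256) : inL i w ↔ inL (img ψ hψ g i) (ψ g w) :=
  (exists_image (hψ g) i).choose_spec w

theorem img_unique (g : G) (i j : Fin 27) (h : ∀ w, inL i w ↔ inL j (ψ g w)) : img ψ hψ g i = j :=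
  line_ext fun w => by
    have e : ψ g ((ψ g).symm w) = w := (ψ g).apply_symm_apply w
    have := (img_spec ψ hψ g i ((ψ g).symm w)).symm.trans (h ((ψ g).symm w))
    rwa [e] at this

theorem img_one (i : Fin 27) : img ψ hψ 1 i = i := img_unique ψ hψ 1 i i fun w => by simp

theorem img_mul (g h : G) (i : Fin 27) : img ψ hψ (g * h) i = img ψ hψ g (img ψ hψ h i) :=
  img_unique ψ hψ _ _ _ fun w => by
    rw [map_mul, Equiv.Perm.mul_apply]
    exact (img_spec ψ hψ h i w).trans (img_spec ψ hψ g _ _)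

theorem img_injective (g : G) : Function.Injective (img ψ hψ g) := fun i j h => by
  have := congrArg (img ψ hψ g⁻¹) h
  rwa [← img_mul, ← img_mul, inv_mul_cancel, img_one, img_one] at this

/-- the matrix of an element -/
noncomputable def lineMat (g : G) : Matrix Ix Ix (ZMod 2) :=
  (Matrix.of fun x k => pt (img ψ hψ g (baseL k)) x) * baseInv

theorem lineMat_base (g : G) (k : Fin 6) :
    lineMat ψ hψ g *ᵥ pt (baseL k) = pt (img ψ hψ g (baseL k)) := by
  rw [lineMat, ← Matrix.mulVec_mulVec,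
    show baseInv *ᵥ pt (baseL k) = Pi.single k 1 from funext fun l => by
      rw [Pi.single_apply]; exact base_inv_check.1 k l,
    Matrix.mulVec_single_one]
  rfl

theorem add_eq_of_sum_zero : ∀ a b c : ZMod 2, a + b + c = 0 → c = a + b := by decide

theorem lineMat_pt (g : G) : ∀ i, lineMat ψ hψ g *ᵥ pt i = pt (img ψ hψ g i) := by
  refine closure (lineMat_base ψ hψ g) ?_
  intro c a b w hab hbc hac hw ha hb hc pa pb
  have big : ∀ (i j l : Fin 27) (v : Fin 256), v ≠ 0 → inL i v → inL j v → inL l v →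
      1 < (maskL.getD i.val 0 &&& maskL.getD j.val 0 &&& maskL.getD l.val 0) := by
    intro i j l v hv hi hj hl
    have ht : (maskL.getD i.val 0 &&& maskL.getD j.val 0 &&& maskL.getD l.val 0).testBit v.val = true := by
      simp only [Nat.testBit_and, Bool.and_eq_true]
      exact ⟨⟨hi, hj⟩, hl⟩
    have hv' : 1 ≤ v.val := Nat.pos_of_ne_zero fun h => hv (Fin.ext h)
    calc 1 < 2 ^ v.val := Nat.one_lt_two_pow (by omega)
      _ ≤ _ := Nat.ge_two_pow_of_testBit ht
  have e1 : pt c = pt a + pt b := funext fun x =>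
    add_eq_of_sum_zero _ _ _ (triple_check a b c hab hbc hac (big a b c w hw ha hb hc) x)
  have hinj := img_injective ψ hψ g
  have hw' : ψ g w ≠ 0 := fun h => hw ((ψ g).injective (h.trans (hψ g).zero.symm))
  have e2 : pt (img ψ hψ g c) = pt (img ψ hψ g a) + pt (img ψ hψ g b) := funext fun x =>
    add_eq_of_sum_zero _ _ _ (triple_check _ _ _ (hinj.ne hab) (hinj.ne hbc) (hinj.ne hac)
      (big _ _ _ _ hw' ((img_spec ψ hψ g a w).1 ha) ((img_spec ψ hψ g b w).1 hb)
        ((img_spec ψ hψ g c w).1 hc)) x)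
  rw [e1, Matrix.mulVec_add, pa, pb, e2]

theorem mat_ext {A B : Matrix Ix Ix (ZMod 2)} (h : ∀ k, A *ᵥ pt (baseL k) = B *ᵥ pt (baseL k)) :
    A = B := by
  set P : Matrix Ix (Fin 6) (ZMod 2) := Matrix.of fun x k => pt (baseL k) x with hP
  have hPI : P * baseInv = 1 := by
    ext x y
    simp only [Matrix.mul_apply, hP, Matrix.of_apply, Matrix.one_apply]
    exact base_inv_check.2 x y
  have hAB : A * P = B * P := by
    ext x k
    exact congrFun (h k) x
  calc A = A * P * baseInv := by rw [Matrix.mul_assoc, hPI, Matrix.mul_one]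
    _ = B := by rw [hAB, Matrix.mul_assoc, hPI, Matrix.mul_one]

/-- the matrices, as a homomorphism -/
noncomputable def lineHom : G →* Matrix Ix Ix (ZMod 2) where
  toFun := lineMat ψ hψ
  map_one' := mat_ext fun k => by rw [lineMat_pt, img_one, Matrix.one_mulVec]
  map_mul' g h := mat_ext fun k => by
    rw [lineMat_pt, img_mul, ← Matrix.mulVec_mulVec, lineMat_pt, lineMat_pt]

include hψ in
/-- A group of line maps acts by isometries of the minus type space, its kernel fixes every plane. -/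
theorem exists_line_hom : ∃ Φ : G →* Cfsg.isometryGroup (ZMod 2) (Cfsg.quadFormMinus 2 (ZMod 2) (1 : ZMod 2) 1),
    ∀ g, Φ g = 1 → ∀ i w, inL i w → inL i (ψ g w) := by
  set Q : (Ix → ZMod 2) → ZMod 2 := Cfsg.quadFormMinus 2 (ZMod 2) 1 1 with hQ
  have hzero : ∀ u, Q u = 0 ↔ u = 0 ∨ ∃ i, pt i = u := by
    intro u
    obtain ⟨c, hc⟩ := vec_surj_check u
    obtain rfl : vec c.val = u := funext hc
    refine (sing_pt_check c).trans ⟨?_, ?_⟩
    · rintro (h | ⟨i, hi⟩)
      · exact Or.inl (funext fun x => by simp [vec, h])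
      · exact Or.inr ⟨i, by rw [pt, hi]⟩
    · have hinj : ∀ a b : Fin 64, (∀ x, vec a.val x = vec b.val x) → a = b := by decide +kernel
      have hlt : ∀ i : Fin 27, ptL.getD i.val 0 < 64 := by decide +kernel
      rintro (h | ⟨i, hi⟩)
      · refine Or.inl (congrArg Fin.val (hinj c 0 fun x => ?_))
        rw [h]; simp [vec]
      · exact Or.inr ⟨i, congrArg Fin.val (hinj ⟨_, hlt i⟩ c fun x => congrFun hi x)⟩
  have hfwd : ∀ g u, Q u = 0 → Q (lineHom ψ hψ g *ᵥ u) = 0 := by
    intro g u hu
    rcases (hzero u).1 hu with h | ⟨i, hi⟩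
    · rw [h, Matrix.mulVec_zero]; exact (hzero 0).2 (Or.inl rfl)
    · exact (hzero _).2 (Or.inr ⟨img ψ hψ g i, by rw [← hi]; exact (lineMat_pt ψ hψ g i).symm⟩)
  have hmem : ∀ g, (lineHom ψ hψ).toHomUnits g ∈ Cfsg.isometryGroup (ZMod 2) Q := by
    intro g u v
    show Q (lineHom ψ hψ g *ᵥ u) = Q u
    have h2 : ∀ x y : ZMod 2, (x = 0 ↔ y = 0) → x = y := by decide
    refine h2 _ _ ⟨fun h => ?_, hfwd g u⟩
    have := hfwd g⁻¹ _ h
    rwa [Matrix.mulVec_mulVec, ← map_mul, inv_mul_cancel, map_one, Matrix.one_mulVec] at this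
  refine ⟨(lineHom ψ hψ).toHomUnits.codRestrict _ hmem, fun g hg i w hw => ?_⟩
  have hM : lineHom ψ hψ g = 1 := congrArg (fun z => ((z : GL Ix (ZMod 2)) : Matrix Ix Ix (ZMod 2)))
    (congrArg Subtype.val hg)
  have hi : img ψ hψ g i = i := pt_inj_check _ _ fun x => by
    have := congrFun (lineMat_pt ψ hψ g i) x
    rw [show lineMat ψ hψ g = 1 from hM, Matrix.one_mulVec] at this
    exact this.symm
  exact hi ▸ (img_spec ψ hψ g i w).1 hw

end CfsgLib.LargeFischer4
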