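import Cfsg.Agent.LargeFischer4.Stab
import Cfsg.Agent.LargeFischer64.Pair
import Cfsg.Agent.LargeFischer88.Conjugates
import Cfsg.Agent.LargeFischer85.TwoOrbits

/-!
Large Fischer type: the stabiliser in `H/Q` of the vector of an involution of `Q` which is not
conjugate to `z` is the isometry group of the elliptic quadratic form in dimension six.
-/

set_option autoImplicit false

namespace CfsgLib.LargeFischer4

open Cfsg CfsgLib.LargeFischer85

variable {G : Type*} [Group G] [Finite G] {z : G}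
  {Q : Subgroup (Subgroup.centralizer ({z} : Set G))} [Q.Normal]
  {q : V → ZMod 2} {pr : ↥Q → V}
  {act : (↥(Subgroup.centralizer ({z} : Set G)) ⧸ Q) →* Equiv.Perm V}
  {Mb Cb : Subgroup (↥(Subgroup.centralizer ({z} : Set G)) ⧸ Q)} {φ : Fin 4096 ≃ V} {cl : ZMod 3}

/-- The outer half inverts the scalars. -/
theorem exists_not_commute (hF : IsOfLargeFischerTypeAt z Q) (hA : IsAction z Q q pr act)
    (hf : IsFrame q act Mb Cb φ) (hk : IsOrbitClass (Mb.map (frameHom φ act)) cl)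
    {c : ↥(Subgroup.centralizer ({z} : Set G)) ⧸ Q} (hc : ∀ n, frameHom φ act c n = om n) :
    ¬ ∀ k, k * c = c * k := by
  obtain ⟨t, ht⟩ := hA.pr_surj (φ LargeFischer64.n0)
  have htn : φ.symm (pr t) = LargeFischer64.n0 := by rw [ht, Equiv.symm_apply_apply]
  have ht2 : inTwo cl (φ.symm (pr t)) := htn ▸ LargeFischer64.inTwo_n0 cl
  obtain ⟨g₀, ⟨hgc, hgQ⟩, hne⟩ := hF.1.2.2.2.2
  obtain ⟨h₁, hh₁⟩ := LargeFischer88.exists_conj_of_inTwo hF hA hf hk ⟨⟨g₀ * z * g₀⁻¹, hgc⟩, hgQ⟩ t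
    (LargeFischer88.conj_inTwo hF hA hf hk _ (isConj_iff.2 ⟨g₀, rfl⟩) hne) ht2
  have hgz : ((h₁ : G) * g₀) * z * ((h₁ : G) * g₀)⁻¹ =
      ((t : Subgroup.centralizer ({z} : Set G)) : G) := by
    rw [← hh₁]
    simp only [Subgroup.coe_mul, InvMemClass.coe_inv]
    group
  have htz : ((t : Subgroup.centralizer ({z} : Set G)) : G) ≠ z := by
    intro e
    refine ht2.1 ?_
    rw [(hA.pr_zero t).2 (Or.inr e), Equiv.symm_apply_eq, hf.map_zero]
  obtain ⟨-, hdata⟩ := LargeFischer88.conj_data hF hA hf hk _ t.1.2 t.2 htz _ hgz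
  have hXeq : LargeFischer64.stabN φ act = ((Subgroup.centralizer ({z} : Set G) ⊓
      Subgroup.centralizer ({((t : Subgroup.centralizer ({z} : Set G)) : G)} : Set G)).subgroupOf
        (Subgroup.centralizer ({z} : Set G))).map (QuotientGroup.mk' Q) := by
    ext k
    rw [mem_stabilizer_iff hF hA t (fun e => ht2.1 (by rw [e, Equiv.symm_apply_eq, hf.map_zero])) k,
      LargeFischer64.mem_stabN, frameHom_apply, Equiv.symm_apply_eq, ht]
  obtain ⟨-, -, hEX, hnorm, hEe, hE32, hn, ⟨iso⟩⟩ := hdata (LargeFischer64.stabN φ act) _ hXeq rfl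
  haveI := hn
  exact LargeFischer64.Ctx.not_central (E := _) ⟨hf, hA.act_add, hA.act_q, hA.act_inj, hk⟩
    ⟨hEX, hnorm, fun x hx y hy => congrArg Subtype.val (hEe.1.1.comm ⟨x, hx⟩ ⟨y, hy⟩),
      fun x hx => by rw [← pow_two]; exact hEe.2 x hx, hE32,
      iso.toMonoidHom.comp (QuotientGroup.mk' _),
      iso.surjective.comp (QuotientGroup.mk'_surjective _), by
        ext x
        rw [MonoidHom.mem_ker, MonoidHom.comp_apply, MulEquiv.coe_toMonoidHom,
          MulEquiv.map_eq_one_iff, QuotientGroup.mk'_apply, QuotientGroup.eq_one_iff]⟩ hc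

/-- The image of `H/Q` in frame coordinates is a full group. -/
theorem isFullGroup (hF : IsOfLargeFischerTypeAt z Q) (hA : IsAction z Q q pr act)
    (hf : IsFrame q act Mb Cb φ) (hk : IsOrbitClass (Mb.map (frameHom φ act)) cl) :
    IsFullGroup (frameHom φ act).range (Mb.map (frameHom φ act)) cl := by
  have hc' : LargeFischer64.Ctx q act Mb Cb φ cl := ⟨hf, hA.act_add, hA.act_q, hA.act_inj, hk⟩
  obtain ⟨c, hcC, hc, hc1, hzp⟩ := hc'.scalar'
  have h3 : c ^ 3 = 1 := by
    apply hc'.inj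
    ext n : 1
    simp only [pow_succ, pow_zero, one_mul, map_mul, map_one, Equiv.Perm.mul_apply,
      Equiv.Perm.one_apply, hc]
    exact (LargeFischer64.om_sum n).2
  have hsemi : ∀ a : ↥(Subgroup.centralizer ({z} : Set G)) ⧸ Q,
      a * c * a⁻¹ = c ∨ a * c * a⁻¹ = c * c := by
    intro a
    have hm : a * c * a⁻¹ ∈ Subgroup.zpowers c := by rw [hzp]; exact hf.normal_Cb.conj_mem c hcC a
    rw [← mem_powers_iff_mem_zpowers, Submonoid.mem_powers_iff] at hm
    obtain ⟨j, hj⟩ := hm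
    rw [← Nat.mod_add_div j 3, pow_add, pow_mul, h3, one_pow, mul_one] at hj
    have hj3 : j % 3 = 0 ∨ j % 3 = 1 ∨ j % 3 = 2 := by omega
    rcases hj3 with e | e | e <;> rw [e] at hj
    · exact absurd (conj_eq_one_iff.1 (by rw [← hj, pow_zero])) hc1
    · exact Or.inl (by rw [← hj, pow_one])
    · exact Or.inr (by rw [← hj, pow_two])
  refine ⟨?_, ?_, hf.group, hk, ?_, ?_, ?_, ?_, ?_, ?_⟩
  · rw [← Nat.card_congr (MonoidHom.ofInjective hc'.inj).toEquiv]
    exact hc'.card_K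
  · rintro _ ⟨a, -, rfl⟩
    exact ⟨a, rfl⟩
  · rintro _ ⟨a, rfl⟩ _ ⟨m, hm, rfl⟩
    exact ⟨a * m * a⁻¹, hf.normal_Mb.conj_mem m hm a, by rw [map_mul, map_mul, map_inv]⟩
  · rintro _ ⟨a, rfl⟩ x y
    exact hc'.map_vadd a x y
  · rintro _ ⟨a, rfl⟩ n
    exact hc'.map_sing a n
  · rintro _ ⟨a, rfl⟩
    rcases hsemi a with e | e
    · exact Or.inl (hc'.map_om hc (mul_inv_eq_iff_eq_mul.1 e))
    · refine Or.inr fun n => ?_
      rw [← hc n, ← hc (om (frameHom φ act a n)), ← hc (frameHom φ act a n), ← Equiv.Perm.mul_apply,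
        ← map_mul, ← Equiv.Perm.mul_apply, ← map_mul, ← Equiv.Perm.mul_apply, ← map_mul,
        mul_inv_eq_iff_eq_mul.1 e]
  · rintro _ ⟨m, hm, rfl⟩ n
    exact hc'.map_om hc (hf.central c hcC m hm).symm n
  · obtain ⟨a, ha⟩ := not_forall.1 (exists_not_commute hF hA hf hk hc)
    refine ⟨_, ⟨a, rfl⟩, fun n => ?_⟩
    rcases hsemi a with e | e
    · exact absurd (mul_inv_eq_iff_eq_mul.1 e) ha
    · rw [← hc n, ← hc (om (frameHom φ act a n)), ← hc (frameHom φ act a n), ← Equiv.Perm.mul_apply,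
        ← map_mul, ← Equiv.Perm.mul_apply, ← map_mul, ← Equiv.Perm.mul_apply, ← map_mul,
        mul_inv_eq_iff_eq_mul.1 e]

/-- The stabiliser of an involution of `Q` not conjugate to `z`, modulo `Q`. -/
theorem noncentral_stabilizer (hF : IsOfLargeFischerTypeAt z Q) (t : Subgroup.centralizer ({z} : Set G))
    (htQ : t ∈ Q) (ht2 : orderOf t = 2) (ht : ¬ IsConj z (t : G))
    (S : Subgroup (Subgroup.centralizer ({z} : Set G)))
    (hS : ∀ h : Subgroup.centralizer ({z} : Set G), h ∈ S ↔ (h * t * h⁻¹ = t ∨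
      ((h * t * h⁻¹ : Subgroup.centralizer ({z} : Set G)) : G) = t * z)) :
    Nonempty (↥(S.map (QuotientGroup.mk' Q)) ≃*
      Cfsg.isometryGroup (ZMod 2) (Cfsg.quadFormMinus 2 (ZMod 2) (1 : ZMod 2) 1)) := by
  obtain ⟨q, pr, act, hA⟩ := exists_action hF
  obtain ⟨Mb, Cb, φ, hf⟩ := exists_frame hF hA
  obtain ⟨cl, hk⟩ := exists_orbit_class hf.group
  let t' : ↥Q := ⟨t, htQ⟩
  have htz : ((t' : Subgroup.centralizer ({z} : Set G)) : G) ≠ z := fun e => ht (by
    show IsConj z (t' : Subgroup.centralizer ({z} : Set G)).1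
    rw [e])
  have hone : inOne cl (φ.symm (pr t')) := by
    rcases inOne_or_inTwo hA hf cl (x := t') ht2 htz with h | h
    · exact h
    · exact absurd ((LargeFischer88.isConj_iff_inTwo hF hA hf hk t' htz).2 h) ht
  have hfull := isFullGroup hF hA hf hk
  obtain ⟨e⟩ := stabilizer_equiv hfull hone
  have hinj : Function.Injective (frameHom φ act) := frameHom_injective φ hA.act_inj
  have hmem : ∀ h : Subgroup.centralizer ({z} : Set G),
      h ∈ S ↔ frameHom φ act (QuotientGroup.mk' Q h) (φ.symm (pr t')) = φ.symm (pr t') := by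
    intro h
    let b : ↥Q := ⟨h * t * h⁻¹, Subgroup.Normal.conj_mem inferInstance t htQ h⟩
    rw [frameHom_apply, Equiv.apply_symm_apply, φ.symm.injective.eq_iff, hA.act_pr h t' b rfl, hS h]
    have h2 : pr b = pr t' ↔ pr (t'⁻¹ * b) = 0 := by
      have hone : pr 1 = 0 := (hA.pr_zero 1).2 (Or.inl rfl)
      have hinv : pr t'⁻¹ = pr t' := by
        have := hA.pr_mul t'⁻¹ t'
        rw [inv_mul_cancel, hone] at this
        rw [← ZModModule.neg_eq_self (pr t')]
        exact eq_neg_of_add_eq_zero_left this.symm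
      rw [hA.pr_mul, hinv, add_comm, ← ZModModule.sub_eq_add, sub_eq_zero]
    rw [h2, hA.pr_zero]
    refine or_congr ?_ ?_
    · constructor
      · intro he
        have hb : b = t' := Subtype.ext he
        simp [hb]
      · intro he
        have : (t'⁻¹ * b : ↥Q) = 1 := Subtype.ext (Subtype.ext he)
        exact congrArg Subtype.val (inv_mul_eq_one.1 this).symm
    · show _ = (t : G) * z ↔ (t : G)⁻¹ * (b : Subgroup.centralizer ({z} : Set G)).1 = z
      rw [inv_mul_eq_iff_eq_mul]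
  let f : ↥(S.map (QuotientGroup.mk' Q)) →* ↥(MulAction.stabilizer (frameHom φ act).range (φ.symm (pr t'))) :=
    ((frameHom φ act).rangeRestrict.comp (S.map (QuotientGroup.mk' Q)).subtype).codRestrict _ (by
      rintro ⟨_, h, hh, rfl⟩
      exact (hmem h).1 hh)
  have hf' : Function.Bijective f := by
    constructor
    · intro a b hab
      exact Subtype.ext (hinj (congrArg (fun x => (x.1 : Equiv.Perm (Fin 4096))) hab))
    · rintro ⟨⟨_, a, rfl⟩, ha⟩
      obtain ⟨h, rfl⟩ := QuotientGroup.mk'_surjective Q a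
      exact ⟨⟨QuotientGroup.mk' Q h, ⟨h, (hmem h).2 ha, rfl⟩⟩, rfl⟩
  exact ⟨(MulEquiv.ofBijective f hf').trans e⟩

end CfsgLib.LargeFischer4
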