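import Cfsg.Agent.LargeFischer4.LineData

/-!
Large Fischer type: finite checks for the kernel of the stabiliser of a singular vector on the planes.
-/

set_option autoImplicit false
set_option maxRecDepth 100000

namespace CfsgLib.LargeFischer4

open CfsgLib.LargeFischer85

/-- the line of the base vector `5` -/
def lineFive : List (Fin 4096) := [0, 5, 10, 15]

/-- multiplication by a power of the root -/
def sca (d : ZMod 3) (x : Fin 4096) : Fin 4096 := monF 1 (fun _ => d) x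

theorem low_line : ∀ l : Fin 16, herm ⟨l.val, by omega⟩ 5 →
    (⟨l.val, by omega⟩ : Fin 4096) ∈ lineFive := by decide +kernel

/-- a vector is the sum of its first two and its last four coordinates -/
theorem split_low (x : Fin 4096) : x = vadd ⟨x.val % 16, by omega⟩ (up (dn x)) := by
  have h0 := x.isLt
  apply Fin.ext
  simp only [vadd, up, dn]
  have e : x.val % 16 ^^^ 16 * (x.val / 16) = x.val := by
    apply Nat.eq_of_testBit_eq
    intro j
    rw [Nat.testBit_xor, show (16 : ℕ) = 2 ^ 4 by norm_num, Nat.testBit_mod_two_pow,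
      Nat.testBit_two_pow_mul, Nat.testBit_div_two_pow]
    by_cases hj : j < 4
    · simp [hj, show ¬ 4 ≤ j by omega]
    · simp [hj, show 4 ≤ j by omega, show j - 4 + 4 = j by omega]
  rw [e, Nat.mod_eq_of_lt h0]

theorem up_perp : ∀ w : Fin 256, herm (up w) 5 ∧ herm 5 (up w) ∧ dn (up w) = w := by decide +kernel

theorem lineFive_herm : ∀ c ∈ lineFive,
    (∀ c' ∈ lineFive, herm c c' ∧ herm c' c) ∧ ∀ w : Fin 256, herm c (up w) ∧ herm (up w) c := by
  simp only [lineFive, List.forall_mem_cons, List.not_mem_nil, IsEmpty.forall_iff,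
    implies_true, and_true]
  decide +kernel

theorem perp_check (x : Fin 4096) (hx : herm x 5) :
    x = vadd ⟨x.val % 16, by omega⟩ (up (dn x)) ∧ (⟨x.val % 16, by omega⟩ : Fin 4096) ∈ lineFive ∧
      ∀ c ∈ lineFive, herm c x ∧ herm x c := by
  have hx' := split_low x
  have hl := low_line ⟨x.val % 16, by omega⟩ (by
    rw [hx', vadd_comm', herm_vadd_left (up_perp _).1] at hx
    exact hx)
  refine ⟨hx', hl, fun c hc => ?_⟩
  obtain ⟨h1, h2⟩ := lineFive_herm c hc
  rw [hx']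
  exact ⟨(herm_vadd_right (h1 _ hl).1 _).2 (h2 _).1, (herm_vadd_left (h1 _ hl).2 _).2 (h2 _).2⟩

theorem om_lineFive : om 5 = 10 ∧ om 10 = 15 ∧ om 15 = 5 ∧ om 0 = 0 ∧
    ∀ c ∈ lineFive, dn c = 0 ∧ herm c 5 := by
  simp only [lineFive, List.forall_mem_cons, List.not_mem_nil, IsEmpty.forall_iff,
    implies_true, and_true]
  decide +kernel

theorem om_om_eq : ∀ x : Fin 4096, om (om x) = vadd x (om x) := by decide +kernel

/-- the triples of planes through a common point -/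
def triL : List (Fin 27 × Fin 27 × Fin 27) :=
  [(0, 1, 2), (0, 3, 6), (0, 9, 18), (0, 13, 22), (0, 17, 26), (1, 4, 7), (1, 10, 19), (1, 14, 23), (1, 15, 24), (2, 5, 8), (2, 11, 20), (2, 12, 21), (2, 16, 25), (3, 4, 5), (3, 11, 24), (3, 12, 19), (3, 16, 23), (4, 9, 25), (4, 13, 20), (4, 17, 21), (5, 10, 26), (5, 14, 18), (5, 15, 22), (6, 7, 8), (6, 10, 21), (6, 14, 25), (6, 15, 20), (7, 11, 22), (7, 12, 26), (7, 16, 18), (8, 9, 23), (8, 13, 24), (8, 17, 19), (9, 10, 11), (9, 12, 15), (10, 13, 16), (11, 14, 17), (12, 13, 14), (15, 16, 17), (18, 19, 20), (18, 21, 24), (19, 22, 25), (20, 23, 26), (21, 22, 23), (24, 25, 26)]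

theorem point_lines : ∀ w : Fin 256, wt (up w) = 2 → ∃ t ∈ triL,
    inL t.1 w ∧ inL t.2.1 w ∧ inL t.2.2 w ∧
      maskL.getD t.1.val 0 &&& maskL.getD t.2.1.val 0 &&& maskL.getD t.2.2.val 0 =
        2 ^ 0 ||| 2 ^ (dn (sca 0 (up w))).val ||| 2 ^ (dn (sca 1 (up w))).val ||| 2 ^ (dn (sca 2 (up w))).val := by
  decide +kernel

theorem sca_up : ∀ w : Fin 256, wt (up w) = 2 → ∀ d : ZMod 3,
    up (dn (sca d (up w))) = sca d (up w) ∧ ∀ c ∈ lineFive,
      (wt (vadd c (sca d (up w))) = 2 ∨ wt (vadd c (sca d (up w))) = 6) → c = 0 := by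
  simp only [lineFive, List.forall_mem_cons, List.not_mem_nil, IsEmpty.forall_iff,
    implies_true, and_true]
  decide +kernel

theorem pin_check (w : Fin 256) (hw : wt (up w) = 2) (u : Fin 256) (hu : u ≠ 0)
    (hl : ∀ i : Fin 27, inL i w → inL i u) (c : Fin 4096) (hc : c ∈ lineFive)
    (h : wt (vadd c (up u)) = 2 ∨ wt (vadd c (up u)) = 6) :
    ∃ d : ZMod 3, vadd c (up u) = sca d (up w) := by
  obtain ⟨t, -, h1, h2, h3, he⟩ := point_lines w hw
  have ht : (maskL.getD t.1.val 0 &&& maskL.getD t.2.1.val 0 &&& maskL.getD t.2.2.val 0).testBit u.val = true := by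
    simp only [Nat.testBit_and, Bool.and_eq_true]
    exact ⟨⟨hl _ h1, hl _ h2⟩, hl _ h3⟩
  have hu0 : u.val ≠ 0 := fun e => hu (Fin.ext e)
  rw [he] at ht
  simp only [Nat.testBit_or, Nat.testBit_two_pow, Bool.or_eq_true, decide_eq_true_eq, or_assoc] at ht
  rcases ht with e | ht
  · exact absurd e.symm hu0
  have key : ∀ d : ZMod 3, (dn (sca d (up w))).val = u.val → ∃ d, vadd c (up u) = sca d (up w) := by
    intro d hd
    obtain ⟨e1, e2⟩ := sca_up w hw d
    rw [Fin.ext hd] at e1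
    rw [e1] at h ⊢
    rw [e2 c hc h, vadd_comm', vadd_zero']
    exact ⟨d, rfl⟩
  rcases ht with e | e | e <;> exact key _ e

theorem step_check : ∀ a : Fin 256, wt (up a) = 2 → ∀ b : Fin 256, wt (up b) = 2 →
    wt (vadd (up a) (up b)) = 2 → (∀ c : ZMod 3, sca c (up a) ≠ up b) → ∀ d e f : ZMod 3,
      vadd (sca d (up a)) (sca e (up b)) = sca f (vadd (up a) (up b)) → d = e := by decide +kernel

theorem two_card : ∀ k : ZMod 3,
    (Finset.univ.filter fun n : Fin 4096 => inOne k n).card = 378 := by decide +kernel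

theorem high_bits : ∀ d : ZMod 3, om (bit 4) = bit 5 ∧ sca d (bit 5) = om (sca d (bit 4)) ∧
    om (sca d (bit 4)) ≠ om (om (sca d (bit 4))) := by decide +kernel

theorem low_split : ∀ d : ZMod 3, ∀ c : Fin 16,
    herm ⟨c.val, by omega⟩ (sca d (bit 4)) ∧ herm ⟨c.val, by omega⟩ (sca d (bit 6)) ∧
      herm ⟨c.val, by omega⟩ (sca d (bit 8)) ∧ herm ⟨c.val, by omega⟩ (sca d (bit 10)) := by decide +kernel

theorem low_high : ∀ d : ZMod 3, ∀ w : Fin 256, herm (up w) (sca d (bit 4)) →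
    herm (up w) (sca d (bit 6)) → herm (up w) (sca d (bit 8)) → herm (up w) (sca d (bit 10)) → w = 0 := by
  decide +kernel

theorem low_odd : ∀ c : Fin 16, ¬ sing ⟨c.val, by omega⟩ → ¬ sing (vadd 5 ⟨c.val, by omega⟩) →
    c = 1 ∨ c = 4 := by decide +kernel

theorem low_check (d : ZMod 3) (y : Fin 4096) (h1 : ¬ sing y) (h2 : ¬ sing (vadd 5 y))
    (h4 : herm y (sca d (bit 4))) (h6 : herm y (sca d (bit 6))) (h8 : herm y (sca d (bit 8)))
    (h10 : herm y (sca d (bit 10))) : y = 1 ∨ y = 4 := by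
  obtain ⟨a4, a6, a8, a10⟩ := low_split d ⟨y.val % 16, by omega⟩
  have hy := split_low y
  rw [hy, herm_vadd_left a4] at h4
  rw [hy, herm_vadd_left a6] at h6
  rw [hy, herm_vadd_left a8] at h8
  rw [hy, herm_vadd_left a10] at h10
  rw [low_high d _ h4 h6 h8 h10, show up 0 = (0 : Fin 4096) from rfl, vadd_zero'] at hy
  rw [hy] at h1 h2 ⊢
  rcases low_odd ⟨y.val % 16, by omega⟩ h1 h2 with e | e
  · exact Or.inl (Fin.ext (show y.val % 16 = 1 from congrArg Fin.val e))
  · exact Or.inr (Fin.ext (show y.val % 16 = 4 from congrArg Fin.val e))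

theorem low_bits : bit 1 = om (bit 0) ∧ bit 2 = vadd 5 (bit 0) ∧ bit 3 = om (bit 2) ∧
    ¬ sing (bit 0) ∧ ¬ sing (bit 2) ∧
    herm (bit 0) (bit 4) ∧ herm (bit 0) (bit 6) ∧ herm (bit 0) (bit 8) ∧ herm (bit 0) (bit 10) := by
  decide +kernel

/-- the exponents of the candidates for the kernel -/
def candEps (d : ZMod 3) : Fin 6 → ZMod 3 := ![0, 0, d, d, d, d]

theorem cand_bits : ∀ d : ZMod 3,
    (monF 1 (candEps d) (bit 0) = 1 ∧ monF 1 (candEps d) (bit 1) = om 1 ∧
      monF 1 (candEps d) (bit 2) = vadd 5 1 ∧ monF 1 (candEps d) (bit 3) = om (vadd 5 1)) ∧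
    (monF (Equiv.swap 0 1) (candEps d) (bit 0) = 4 ∧ monF (Equiv.swap 0 1) (candEps d) (bit 1) = om 4 ∧
      monF (Equiv.swap 0 1) (candEps d) (bit 2) = vadd 5 4 ∧
      monF (Equiv.swap 0 1) (candEps d) (bit 3) = om (vadd 5 4)) ∧
    ∀ i : Fin 12, 4 ≤ i.val → monF 1 (candEps d) (bit i) = sca d (bit i) ∧
      monF (Equiv.swap 0 1) (candEps d) (bit i) = sca d (bit i) := by decide +kernel

theorem cand_class : ∀ k d : ZMod 3, d ≠ 0 →
    (∃ n : Fin 4096, inOne k n ∧ ¬ inOne k (monF 1 (candEps d) n)) ∧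
    (∃ n : Fin 4096, inOne k n ∧ ¬ inOne k (monF (Equiv.swap 0 1) (candEps d) n)) := by decide +kernel

theorem cand_zero : candEps 0 = 0 ∧ ∀ n : Fin 4096, monF 1 0 n = n := by decide +kernel

theorem gen_wt : ∀ w ∈ ([5, 6, 7, 9, 13, 17, 20, 33, 49, 65, 129, 193] : List (Fin 256)),
    wt (up w) = 2 := by decide +kernel

/-- `b` is linked to `a` -/
def Linked (a b : Fin 256) : Prop :=
  wt (up a) = 2 ∧ wt (up b) = 2 ∧ wt (vadd (up a) (up b)) = 2 ∧ ∀ c : ZMod 3, sca c (up a) ≠ up b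

theorem chain_wt :
    (∀ w ∈ ([20, 17, 33, 49, 65, 129, 193] : List (Fin 256)), Linked 5 w) ∧
    (∀ w ∈ ([6, 7] : List (Fin 256)), Linked 20 w) ∧
    (∀ w ∈ ([9, 13] : List (Fin 256)), Linked 17 w) := by
  unfold Linked
  decide +kernel

theorem gen_sums : bit 4 = vadd (up 6) (up 7) ∧ bit 5 = vadd (up 5) (up 7) ∧
    bit 6 = vadd (up 9) (up 13) ∧ bit 7 = vadd (up 5) (up 13) ∧
    bit 8 = vadd (up 33) (up 49) ∧ bit 9 = vadd (up 17) (up 49) ∧
    bit 10 = vadd (up 129) (up 193) ∧ bit 11 = vadd (up 65) (up 193) := by decide +kernel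

end CfsgLib.LargeFischer4
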