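import Cfsg.Agent.LargeFischer4.Lines
import Cfsg.Agent.LargeFischer4.StabChecks
import Cfsg.Agent.LargeFischer4.Frames
import Cfsg.Agent.Classical.Orth.OrderStd

/-!
Large Fischer type: in the full monomial-frame group of order `19595520` the stabiliser of a
vector in the first orbit is the isometry group of the elliptic form in dimension six.
-/

set_option autoImplicit false
set_option maxRecDepth 100000

namespace CfsgLib.LargeFischer4

open CfsgLib.LargeFischer85

/-- What is used on the image of `H/Q`: a frame group of linear maps with index two, and one map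
inverting the scalars. -/
structure IsFullGroup (K M : Subgroup (Equiv.Perm (Fin 4096))) (k : ZMod 3) : Prop where
  card : Nat.card K = 19595520
  le : M ≤ K
  frame : IsFrameGroup M
  orbit : IsOrbitClass M k
  conj_mem : ∀ g ∈ K, ∀ m ∈ M, g * m * g⁻¹ ∈ M
  add : ∀ g ∈ K, ∀ a b, g (vadd a b) = vadd (g a) (g b)
  sing_iff : ∀ g ∈ K, ∀ n, sing (g n) ↔ sing n
  semi : ∀ g ∈ K, (∀ n, g (om n) = om (g n)) ∨ ∀ n, g (om n) = om (om (g n))
  linear : ∀ m ∈ M, ∀ n, m (om n) = om (m n)
  inverting : ∃ s ∈ K, ∀ n, s (om n) = om (om (s n))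

variable {K M : Subgroup (Equiv.Perm (Fin 4096))} {k : ZMod 3}

theorem om_facts : ∀ x : Fin 4096, om (om (om x)) = x ∧ (x ≠ 0 → om x ≠ om (om x)) := by decide +kernel

theorem map_zero' (h : IsFullGroup K M k) {g : Equiv.Perm (Fin 4096)} (hg : g ∈ K) : g 0 = 0 := by
  have := h.add g hg 0 0
  rwa [vadd_self, vadd_self] at this

theorem inOne_iff' (h : IsFullGroup K M k) {g : Equiv.Perm (Fin 4096)} (hg : g ∈ K) (n : Fin 4096) :
    inOne k (g n) ↔ inOne k n :=
  h.orbit.stable g (map_zero' h hg) (h.sing_iff g hg) (h.conj_mem g hg) n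

theorem herm_iff' (h : IsFullGroup K M k) {g : Equiv.Perm (Fin 4096)} (hg : g ∈ K) (a b : Fin 4096) :
    herm (g a) (g b) ↔ herm a b := by
  have ho := orth_iff_of_additive (h.add g hg) (h.sing_iff g hg)
  rcases h.semi g hg with hl | hl
  · unfold herm
    rw [← hl, ho, ho]
  · have h2 : ∀ x : Fin 4096, herm x (g b) ↔ orth x (g b) ∧ orth (om (om x)) (g b) := by
      intro x
      simp only [herm, om_om_eq, orth_iff_pz, pz_vadd_left]
      constructor <;> rintro ⟨u, v⟩ <;> refine ⟨u, ?_⟩ <;> simp_all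
    rw [h2, ← hl, ho, ho]
    rfl

theorem linear_mem (h : IsFullGroup K M k) {g : Equiv.Perm (Fin 4096)} (hg : g ∈ K)
    (hl : ∀ n, g (om n) = om (g n)) : g ∈ M := by
  classical
  obtain ⟨s, hs, hsi⟩ := h.inverting
  by_contra hgM
  have hnot : ∀ m ∈ M, s * m ≠ g := by
    intro m hm e
    have h5 := hl 5
    rw [← e, Equiv.Perm.mul_apply, Equiv.Perm.mul_apply, h.linear m hm, hsi] at h5
    refine (om_facts (s (m 5))).2 ?_ h5.symm
    intro h0
    rw [← map_zero' h hs] at h0
    have := s.injective h0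
    rw [← h.frame.zero m hm] at this
    exact absurd (m.injective this) (by decide)
  have hsM : ∀ m ∈ M, s * m ∉ M := by
    intro m hm hc
    have hsM' : s ∈ M := by simpa [mul_assoc] using M.mul_mem hc (M.inv_mem hm)
    have := (hsi 5).symm.trans (h.linear s hsM' 5)
    refine (om_facts (s 5)).2 ?_ this.symm
    intro h0
    rw [← map_zero' h hs] at h0
    exact absurd (s.injective h0) (by decide)
  let f : Option (M ⊕ M) → K := fun x => match x with
    | none => ⟨g, hg⟩
    | some (Sum.inl m) => ⟨m, h.le m.2⟩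
    | some (Sum.inr m) => ⟨s * m, K.mul_mem hs (h.le m.2)⟩
  have hf : Function.Injective f := by
    rintro (_ | (a | a)) (_ | (b | b)) e <;> simp only [f, Subtype.mk.injEq] at e
    · rfl
    · exact absurd (e ▸ b.2) hgM
    · exact absurd e.symm (hnot _ b.2)
    · exact absurd (e.symm ▸ a.2) hgM
    · rw [Subtype.ext e]
    · exact absurd (e ▸ a.2) (hsM _ b.2)
    · exact absurd e (hnot _ a.2)
    · exact absurd (e.symm ▸ b.2) (hsM _ a.2)
    · rw [Subtype.ext (mul_left_cancel e)]
  have hc := Nat.card_le_card_of_injective f hf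
  rw [Finite.card_option, Nat.card_sum, h.frame.card, h.card] at hc
  omega

/-- The permutation of the last four coordinates induced by an element fixing the vector `5`. -/
def dnMap (g : Equiv.Perm (Fin 4096)) (w : Fin 256) : Fin 256 := dn (g (up w))

theorem dn_vadd_of_dn_zero {c : Fin 4096} (hc : dn c = 0) (y : Fin 4096) : dn (vadd c y) = dn y := by
  have hc' : c.val / 16 = 0 := congrArg Fin.val hc
  have := c.isLt
  have := y.isLt
  apply Fin.ext
  simp only [dn, vadd]
  rw [Nat.mod_eq_of_lt (Nat.xor_lt_two_pow (n := 12) (by omega) (by omega)),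
    show (16 : ℕ) = 2 ^ 4 by norm_num, ← Nat.shiftRight_eq_div_pow, ← Nat.shiftRight_eq_div_pow,
    Nat.shiftRight_xor_distrib, Nat.shiftRight_eq_div_pow, Nat.shiftRight_eq_div_pow,
    show c.val / 2 ^ 4 = 0 from hc', Nat.zero_xor]

theorem lineFive_closed (h : IsFullGroup K M k) {g : Equiv.Perm (Fin 4096)} (hg : g ∈ K) (h5 : g 5 = 5)
    {c : Fin 4096} (hc : c ∈ lineFive) : g c ∈ lineFive := by
  obtain ⟨e1, e2, e3, e0, -⟩ := om_lineFive
  have h10 : g 10 = 10 ∨ g 10 = 15 := by
    rcases h.semi g hg with hl | hl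
    · left; rw [← e1, hl, h5]
    · right; rw [← e1, hl, h5, e1, e2]
  have h15 : g 15 ∈ lineFive := by
    rcases h.semi g hg with hl | hl <;> rw [← e2, hl] <;>
      rcases h10 with e | e <;> rw [e] <;> simp [lineFive, e1, e2, e3]
  simp only [lineFive, List.mem_cons, List.not_mem_nil, or_false] at hc
  rcases hc with rfl | rfl | rfl | rfl
  · simp [lineFive, map_zero' h hg]
  · simp [lineFive, h5]
  · rcases h10 with e | e <;> simp [lineFive, e]
  · exact h15

theorem perp_image (h : IsFullGroup K M k) {g : Equiv.Perm (Fin 4096)} (hg : g ∈ K) (h5 : g 5 = 5)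
    (w : Fin 256) : herm (g (up w)) 5 := by
  conv_rhs => rw [← h5]
  exact (herm_iff' h hg _ _).2 (up_perp w).1

theorem dnMap_mul (h : IsFullGroup K M k) {g g' : Equiv.Perm (Fin 4096)} (hg : g ∈ K) (hg' : g' ∈ K)
    (h5 : g 5 = 5) (h5' : g' 5 = 5) (w : Fin 256) :
    dnMap (g * g') w = dnMap g (dnMap g' w) := by
  obtain ⟨hx, hc, -⟩ := perp_check _ (perp_image h hg' h5' w)
  rw [dnMap, Equiv.Perm.mul_apply, hx, h.add g hg,
    dn_vadd_of_dn_zero (om_lineFive.2.2.2.2 _ (lineFive_closed h hg h5 hc)).1]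
  rfl

theorem dnMap_herm (h : IsFullGroup K M k) {g : Equiv.Perm (Fin 4096)} (hg : g ∈ K) (h5 : g 5 = 5)
    (a b : Fin 256) : herm (up (dnMap g a)) (up (dnMap g b)) ↔ herm (up a) (up b) := by
  obtain ⟨ha, hca, -⟩ := perp_check _ (perp_image h hg h5 a)
  obtain ⟨hb, hcb, -⟩ := perp_check _ (perp_image h hg h5 b)
  rw [← herm_iff' h hg (up a) (up b), ha, hb,
    herm_vadd_left ((perp_check _ (by rw [← hb]; exact perp_image h hg h5 b)).2.2 _ hca).1,
    herm_vadd_right ((perp_check _ (up_perp _).1).2.2 _ hcb).2]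
  rfl

theorem dnMap_one (w : Fin 256) : dnMap 1 w = w := (up_perp w).2.2

/-- the stabiliser of the vector `5` -/
abbrev stabFive (K : Subgroup (Equiv.Perm (Fin 4096))) : Subgroup K := MulAction.stabilizer K (5 : Fin 4096)

theorem stabFive_fix (g : stabFive K) : (g.1 : Equiv.Perm (Fin 4096)) 5 = 5 := g.2

/-- the action of the stabiliser on the last four coordinates -/
noncomputable def planeHom (h : IsFullGroup K M k) : stabFive K →* Equiv.Perm (Fin 256) where
  toFun g :=
    { toFun := dnMap (g.1 : Equiv.Perm (Fin 4096))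
      invFun := dnMap ((g⁻¹).1 : Equiv.Perm (Fin 4096))
      left_inv := fun w => by
        rw [← dnMap_mul h (g⁻¹).1.2 g.1.2 (stabFive_fix _) (stabFive_fix _)]
        simp [dnMap_one]
      right_inv := fun w => by
        rw [← dnMap_mul h g.1.2 (g⁻¹).1.2 (stabFive_fix _) (stabFive_fix _)]
        simp [dnMap_one] }
  map_one' := Equiv.ext fun w => dnMap_one w
  map_mul' g g' := Equiv.ext fun w =>
    dnMap_mul h g.1.2 g'.1.2 (stabFive_fix _) (stabFive_fix _) w

theorem planeHom_apply (h : IsFullGroup K M k) (g : stabFive K) (w : Fin 256) :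
    planeHom h g w = dnMap (g.1 : Equiv.Perm (Fin 4096)) w := rfl

theorem planeHom_isLineMap (h : IsFullGroup K M k) (g : stabFive K) : IsLineMap (planeHom h g) where
  zero := by
    rw [planeHom_apply, dnMap, show up 0 = (0 : Fin 4096) from rfl, map_zero' h g.1.2]
    rfl
  herm_iff a b := dnMap_herm h g.1.2 (stabFive_fix g) a b

theorem up_dn_vadd (a b : Fin 256) : up (dn (vadd (up a) (up b))) = vadd (up a) (up b) := by
  apply Fin.ext
  simp only [up, dn, vadd]
  have h16 : 16 ∣ (16 * a.val ^^^ 16 * b.val) := by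
    rw [show (16 : ℕ) = 2 ^ 4 by norm_num, mul_comm _ a.val, mul_comm _ b.val, ← Nat.shiftLeft_eq, ← Nat.shiftLeft_eq,
      ← Nat.shiftLeft_xor_distrib, Nat.shiftLeft_eq]
    exact dvd_mul_left _ _
  omega

theorem sca_vadd (d : ZMod 3) (a b : Fin 4096) : sca d (vadd a b) = vadd (sca d a) (sca d b) :=
  monF_vadd _ _ a b

/-- An element of the stabiliser fixing every plane is the identity. -/
theorem eq_one_of_fix (h : IsFullGroup K M k) {g : Equiv.Perm (Fin 4096)} (hg : g ∈ K) (h5 : g 5 = 5)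
    (hfix : ∀ i w, inL i w → inL i (dnMap g w)) : g = 1 := by
  have hadd := h.add g hg
  have hd : ∀ w, wt (up w) = 2 → ∃ d, g (up w) = sca d (up w) := by
    intro w hw
    obtain ⟨hx, hc, -⟩ := perp_check _ (perp_image h hg h5 w)
    rw [hx]
    refine pin_check w hw (dn (g (up w))) ?_ (fun i hi => hfix i w hi) _ hc ?_
    · intro h0
      replace h0 : dnMap g w = 0 := h0
      have hz : dnMap g 0 = 0 := by
        rw [dnMap, show up 0 = (0 : Fin 4096) from rfl, map_zero' h hg]; rfl
      let G' : stabFive K := ⟨⟨g, hg⟩, h5⟩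
      have := (planeHom h G').injective (a₁ := w) (a₂ := 0) (h0.trans hz.symm)
      subst this
      exact absurd hw (by decide)
    · rw [← hx]
      rcases (inOne_iff' h hg (up w)).2 (Or.inl hw) with e | e
      · exact Or.inl e
      · exact Or.inr e.1
  obtain ⟨d, hd5⟩ := hd 5 (gen_wt 5 (by decide))
  have link : ∀ a b, Linked a b → g (up a) = sca d (up a) → g (up b) = sca d (up b) := by
    rintro a b ⟨ha, hb, hab, hne⟩ e
    obtain ⟨d', e'⟩ := hd b hb
    obtain ⟨f, ef⟩ : ∃ f, g (vadd (up a) (up b)) = sca f (vadd (up a) (up b)) := by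
      obtain ⟨f, ef⟩ := hd (dn (vadd (up a) (up b))) (by rwa [up_dn_vadd])
      exact ⟨f, by rwa [up_dn_vadd] at ef⟩
    rw [hadd, e, e'] at ef
    rw [e', step_check a ha b hb hab hne d d' f ef]
  obtain ⟨c5, c20, c17⟩ := chain_wt
  have p20 := link _ _ (c5 20 (by decide)) hd5
  have p17 := link _ _ (c5 17 (by decide)) hd5
  have p33 := link _ _ (c5 33 (by decide)) hd5
  have p49 := link _ _ (c5 49 (by decide)) hd5
  have p65 := link _ _ (c5 65 (by decide)) hd5
  have p129 := link _ _ (c5 129 (by decide)) hd5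
  have p193 := link _ _ (c5 193 (by decide)) hd5
  have p6 := link _ _ (c20 6 (by decide)) p20
  have p7 := link _ _ (c20 7 (by decide)) p20
  have p9 := link _ _ (c17 9 (by decide)) p17
  have p13 := link _ _ (c17 13 (by decide)) p17
  obtain ⟨b4, b5, b6, b7, b8, b9, b10, b11⟩ := gen_sums
  have hhigh : ∀ i : Fin 12, 4 ≤ i.val → g (bit i) = sca d (bit i) := by
    intro i hi
    fin_cases i <;> simp_all [sca_vadd]
  have hlin : ∀ n, g (om n) = om (g n) := by
    rcases h.semi g hg with hl | hl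
    · exact hl
    · obtain ⟨e1, e2, e3⟩ := high_bits d
      have := hl (bit 4)
      rw [e1, hhigh 5 (by decide), hhigh 4 (by decide), e2] at this
      exact absurd this e3
  obtain ⟨q1, q2, q3, q0, q2s, q4, q6, q8, q10⟩ := low_bits
  have hy := low_check d (g (bit 0)) (fun e => q0 ((h.sing_iff g hg _).1 e))
    (fun e => q2s ((h.sing_iff g hg _).1 (by rw [q2, hadd, h5]; exact e)))
    (by rw [← hhigh 4 (by decide)]; exact (herm_iff' h hg _ _).2 q4)
    (by rw [← hhigh 6 (by decide)]; exact (herm_iff' h hg _ _).2 q6)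
    (by rw [← hhigh 8 (by decide)]; exact (herm_iff' h hg _ _).2 q8)
    (by rw [← hhigh 10 (by decide)]; exact (herm_iff' h hg _ _).2 q10)
  obtain ⟨cy1, cy4, chigh⟩ := cand_bits d
  obtain ⟨σ, hσ, hgσ⟩ : ∃ σ, (σ = 1 ∨ σ = Equiv.swap 0 1) ∧ ∀ n, g n = monF σ (candEps d) n := by
    have g1 : g (bit 1) = om (g (bit 0)) := by rw [q1, hlin]
    have g2 : g (bit 2) = vadd 5 (g (bit 0)) := by rw [q2, hadd, h5]
    have g3 : g (bit 3) = om (g (bit 2)) := by rw [q3, hlin]
    rcases hy with e | e
    · refine ⟨1, Or.inl rfl, ext_additive hadd (monF_vadd _ _) fun i => ?_⟩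
      by_cases hi : 4 ≤ i.val
      · rw [hhigh i hi, (chigh i hi).1]
      · obtain ⟨u0, u1, u2, u3⟩ := cy1
        fin_cases i <;> simp_all
    · refine ⟨Equiv.swap 0 1, Or.inr rfl, ext_additive hadd (monF_vadd _ _) fun i => ?_⟩
      by_cases hi : 4 ≤ i.val
      · rw [hhigh i hi, (chigh i hi).2]
      · obtain ⟨u0, u1, u2, u3⟩ := cy4
        fin_cases i <;> simp_all
  have hd0 : d = 0 := by
    by_contra hne
    obtain ⟨⟨n, hn, hn'⟩, ⟨m, hm, hm'⟩⟩ := cand_class k d hne
    rcases hσ with rfl | rfl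
    · exact hn' (hgσ n ▸ (inOne_iff' h hg n).2 hn)
    · exact hm' (hgσ m ▸ (inOne_iff' h hg m).2 hm)
  subst hd0
  rw [cand_zero.1] at hgσ
  rcases hσ with rfl | rfl
  · exact Equiv.ext fun n => by rw [hgσ, cand_zero.2]; rfl
  · exact absurd ⟨g, linear_mem h hg hlin, hgσ⟩
      (swap_not_mem h.frame h.orbit.one_trans (fun m hm => h.add m (h.le hm)) h.linear)

theorem card_stabilizer (h : IsFullGroup K M k) {v : Fin 4096} (hv : inOne k v) :
    Nat.card (MulAction.stabilizer K v) = 51840 := by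
  classical
  have horb : MulAction.orbit K v = {n | inOne k n} := by
    ext n
    constructor
    · rintro ⟨g, rfl⟩
      exact (inOne_iff' h g.2 v).2 hv
    · intro hn
      obtain ⟨m, hm, e⟩ := h.orbit.one_trans v n hv hn
      exact ⟨⟨m, h.le hm⟩, e⟩
  have hi : (MulAction.stabilizer K v).index = 378 := by
    rw [MulAction.index_stabilizer, horb, ← two_card k, Set.ncard_eq_toFinset_card', Set.toFinset_setOf]
  have := (MulAction.stabilizer K v).card_mul_index
  rw [hi, h.card] at this
  omega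

theorem card_orthogonal :
    Nat.card (Cfsg.isometryGroup (ZMod 2) (Cfsg.quadFormMinus 2 (ZMod 2) (1 : ZMod 2) 1)) = 51840 := by
  rw [CfsgLib.Classical.Orth.card_isometryGroup_minus (1 : ZMod 2) 1 (by decide) 2]
  norm_num [CfsgLib.Classical.Orth.evenProd, Finset.prod_range_succ, ZMod.card]

/-- The stabiliser of a vector of the first orbit is the full isometry group of the elliptic form. -/
theorem stabilizer_equiv (h : IsFullGroup K M k) {v : Fin 4096} (hv : inOne k v) :
    Nonempty (MulAction.stabilizer K v ≃*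
      Cfsg.isometryGroup (ZMod 2) (Cfsg.quadFormMinus 2 (ZMod 2) (1 : ZMod 2) 1)) := by
  classical
  obtain ⟨Φ, hΦ⟩ := exists_line_hom (planeHom h) (planeHom_isLineMap h)
  have hinj : Function.Injective Φ := (injective_iff_map_eq_one Φ).2 fun g hg =>
    Subtype.ext (Subtype.ext (eq_one_of_fix h g.1.2 (stabFive_fix g) (hΦ g hg)))
  have hfive : Nat.card (stabFive K) = 51840 := card_stabilizer h (swap_inOne k)
  have hbij : Function.Bijective Φ :=
    (Nat.bijective_iff_injective_and_card Φ).2 ⟨hinj, hfive.trans card_orthogonal.symm⟩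
  obtain ⟨m, hm, e⟩ := h.orbit.one_trans v 5 hv (swap_inOne k)
  exact ⟨(MulAction.stabilizerEquivStabilizer (g := (⟨m, h.le hm⟩ : K)) (a := v) (b := 5) e.symm).trans
    (MulEquiv.ofBijective Φ hbij)⟩

end CfsgLib.LargeFischer4
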